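import Mathlib
import Cfsg.Agent.Lib.Helper74.OFM.Defs
import Cfsg.Agent.Lib.Helper76.OFX.DerP

/-!
# OFM package [DERP] (minus form): `x̃ = diag(A, A⁻ᵀ, 1)`, `A = 1 + E₀₁`.
-/

set_option autoImplicit false

namespace Cfsg.Agent.Lib.Helper76.OFM

open Matrix Cfsg.Agent.Lib.Helper74.OFM

universe u

theorem pkgDerP : PkgDerP.{u} := by
  intro F _ _ p _ _ hodd n hn a b hab
  have h2 : (2 : F) ≠ 0 := Cfsg.Agent.Lib.Helper44.two_ne_zero_of_odd_card hodd
  have hp2 : p ≠ 2 := by
    rintro rfl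
    exact h2 (by exact_mod_cast CharP.cast_eq_zero F 2)
  have hpodd : Odd p := (Fact.out : p.Prime).odd_of_ne_two hp2
  let i0 : Fin n := ⟨0, by omega⟩
  let i1 : Fin n := ⟨1, by omega⟩
  have h01 : i0 ≠ i1 := by
    intro h
    have := congrArg Fin.val h
    simp [i0, i1] at this
  let A : GL (Fin n) F := ⟨Matrix.transvection i0 i1 1, Matrix.transvection i0 i1 (-1),
    by rw [Matrix.transvection_mul_transvection_same i0 i1 h01, add_neg_cancel,
      Matrix.transvection_zero],
    by rw [Matrix.transvection_mul_transvection_same i0 i1 h01, neg_add_cancel,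
      Matrix.transvection_zero]⟩
  have hAp : A ^ p = 1 := by
    apply Units.ext
    rw [Units.val_pow_eq_pow_val]
    show (Matrix.transvection i0 i1 (1 : F)) ^ p = 1
    rw [Cfsg.Agent.Lib.Helper76.OFX.transvection_pow i0 i1 h01, CharP.cast_eq_zero F p, zero_mul,
      Matrix.transvection_zero]
  let x : GL (Fin n ⊕ Fin n) F := Cfsg.Agent.Lib.Helper20.OPar.phi n A
  have hxp : x ^ p = 1 := by
    show (Cfsg.Agent.Lib.Helper20.OPar.phi n A) ^ p = 1
    rw [← map_pow, hAp, map_one]
  have hxiso : x ∈ Cfsg.isometryGroup F (Cfsg.quadFormPlus n F) :=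
    Cfsg.Agent.Lib.Helper20.OPar.phi_mem n A
  have hxval : (x : Matrix (Fin n ⊕ Fin n) (Fin n ⊕ Fin n) F)
      = Matrix.fromBlocks (Matrix.transvection i0 i1 1) 0 0
      (Matrix.transvection i0 i1 (-1))ᵀ := Cfsg.Agent.Lib.Helper20.OPar.phi_val n A
  -- the block embedding
  let e : GL (Fin n ⊕ Fin n) F →* GL (MI n) F :=
    { toFun := fun y => ⟨Matrix.fromBlocks (y : Matrix (Fin n ⊕ Fin n) (Fin n ⊕ Fin n) F) 0 0 1,
        Matrix.fromBlocks ((y⁻¹ : GL (Fin n ⊕ Fin n) F) : Matrix (Fin n ⊕ Fin n) (Fin n ⊕ Fin n) F)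
          0 0 1,
        by
          rw [Matrix.fromBlocks_multiply]
          simp [← Matrix.fromBlocks_one],
        by
          rw [Matrix.fromBlocks_multiply]
          simp [← Matrix.fromBlocks_one]⟩
      map_one' := by
        apply Units.ext
        show Matrix.fromBlocks (((1 : GL (Fin n ⊕ Fin n) F)) :
          Matrix (Fin n ⊕ Fin n) (Fin n ⊕ Fin n) F) 0 0 (1 : Matrix (Fin 2) (Fin 2) F) = 1
        rw [Units.val_one, Matrix.fromBlocks_one]
      map_mul' := by
        intro y z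
        apply Units.ext
        show Matrix.fromBlocks (((y * z : GL (Fin n ⊕ Fin n) F)) :
            Matrix (Fin n ⊕ Fin n) (Fin n ⊕ Fin n) F) 0 0 (1 : Matrix (Fin 2) (Fin 2) F)
          = Matrix.fromBlocks (y : Matrix (Fin n ⊕ Fin n) (Fin n ⊕ Fin n) F) 0 0
              (1 : Matrix (Fin 2) (Fin 2) F)
            * Matrix.fromBlocks (z : Matrix (Fin n ⊕ Fin n) (Fin n ⊕ Fin n) F) 0 0
              (1 : Matrix (Fin 2) (Fin 2) F)
        rw [Matrix.fromBlocks_multiply]
        simp }
  have he : ∀ y : GL (Fin n ⊕ Fin n) F, ((e y : GL (MI n) F) : Matrix (MI n) (MI n) F)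
      = Matrix.fromBlocks (y : Matrix (Fin n ⊕ Fin n) (Fin n ⊕ Fin n) F) 0 0 1 := fun y => rfl
  let xt : GL (MI n) F := e x
  have hxtp : xt ^ p = 1 := by
    show (e x) ^ p = 1
    rw [← map_pow, hxp, map_one]
  have hxtiso : xt ∈ Cfsg.isometryGroup F (Cfsg.quadFormMinus n F a b) := by
    intro v _
    show Cfsg.quadFormMinus n F a b ((xt : Matrix (MI n) (MI n) F) *ᵥ v)
      = Cfsg.quadFormMinus n F a b v
    have hsplit : ∀ w : MI n → F, Cfsg.quadFormMinus n F a b w
        = Cfsg.quadFormPlus n F (w ∘ Sum.inl) + (w (Sum.inr 0) ^ 2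
          + a * w (Sum.inr 0) * w (Sum.inr 1) + b * w (Sum.inr 1) ^ 2) := fun w => rfl
    have e1 : ((xt : Matrix (MI n) (MI n) F) *ᵥ v) ∘ Sum.inl
        = (x : Matrix (Fin n ⊕ Fin n) (Fin n ⊕ Fin n) F) *ᵥ (v ∘ Sum.inl) := by
      rw [he, Matrix.fromBlocks_mulVec]
      funext i
      simp
    have e2 : ∀ j, ((xt : Matrix (MI n) (MI n) F) *ᵥ v) (Sum.inr j) = v (Sum.inr j) := by
      intro j
      rw [he, Matrix.fromBlocks_mulVec]
      simp
    rw [hsplit, hsplit, e1, e2, e2]
    congr 1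
    exact hxiso (v ∘ Sum.inl) (v ∘ Sum.inl)
  have hxtΩ : xt ∈ Cfsg.Geo.omegaGL (Cfsg.quadFormMinus n F a b) := by
    have h := Cfsg.Agent.Lib.Helper76.OFX.mem_omegaGL_of_odd h2
      (Cfsg.Agent.Lib.Helper14.minusQF n F a b)
      (Cfsg.Agent.Lib.Helper14.minusQF_nondegenerate n F h2 a b hab) xt
      (by rw [Cfsg.Agent.Lib.Helper14.minusQF_coe]; exact hxtiso) p hpodd hxtp
    rw [Cfsg.Agent.Lib.Helper14.minusQF_coe] at h
    exact h
  have hxtval : (xt : Matrix (MI n) (MI n) F) = Matrix.fromBlocks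
      (Matrix.fromBlocks (Matrix.transvection i0 i1 1) 0 0
      (Matrix.transvection i0 i1 (-1))ᵀ) 0 0 1 := by
    rw [he, hxval]
  have hentry : (xt : Matrix (MI n) (MI n) F) (Sum.inl (Sum.inl i0)) (Sum.inl (Sum.inl i1)) = 1 := by
    rw [hxtval, Matrix.fromBlocks_apply₁₁, Matrix.fromBlocks_apply₁₁, Matrix.transvection,
      Matrix.add_apply, Matrix.one_apply_ne h01, Matrix.single_apply_same, zero_add]
  have hne : (Sum.inl (Sum.inl i0) : MI n) ≠ Sum.inl (Sum.inl i1) :=
    fun h => h01 (Sum.inl_injective (Sum.inl_injective h))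
  refine ⟨xt, hxtΩ, ?_, ?_, ?_⟩
  · rw [← Units.val_pow_eq_pow_val, hxtp]
    rfl
  · intro z hz
    have h1 := congrFun (congrFun hz (Sum.inl (Sum.inl i0))) (Sum.inl (Sum.inl i1))
    rw [hentry, Matrix.smul_apply, Matrix.one_apply_ne hne, smul_zero] at h1
    exact one_ne_zero h1
  · have hdec : (xt : Matrix (MI n) (MI n) F) - 1
        = Matrix.vecMulVec (Pi.single (Sum.inl (Sum.inl i0)) 1) (Pi.single (Sum.inl (Sum.inl i1)) 1)
          + Matrix.vecMulVec (Pi.single (Sum.inl (Sum.inr i1)) (-1))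
            (Pi.single (Sum.inl (Sum.inr i0)) 1) := by
      rw [hxtval]
      ext ((i | i) | i) ((j | j) | j)
      · simp only [Matrix.sub_apply, Matrix.fromBlocks_apply₁₁, Matrix.transvection,
          Matrix.add_apply, Matrix.one_apply, Matrix.single_apply, Matrix.vecMulVec_apply,
          Pi.single_apply, Sum.inl.injEq, reduceCtorEq, if_false, mul_zero, add_zero]
        by_cases h1 : i = j <;> by_cases h3 : i = i0 <;> by_cases h4 : j = i1 <;>
          simp [h1, h3, h4, eq_comm]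
      · simp [Matrix.vecMulVec_apply, Pi.single_apply]
      · simp [Matrix.vecMulVec_apply, Pi.single_apply]
      · simp [Matrix.vecMulVec_apply, Pi.single_apply]
      · simp only [Matrix.sub_apply, Matrix.fromBlocks_apply₁₁, Matrix.fromBlocks_apply₂₂,
          Matrix.transvection,
          Matrix.add_apply, Matrix.one_apply, Matrix.single_apply, Matrix.vecMulVec_apply,
          Pi.single_apply, Sum.inr.injEq, Sum.inl.injEq, reduceCtorEq, if_false, mul_zero,
          zero_add, Matrix.transpose_apply]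
        by_cases h1 : i = j <;> by_cases h3 : i = i1 <;> by_cases h4 : j = i0 <;>
          simp [h1, h3, h4, eq_comm]
      · simp [Matrix.vecMulVec_apply, Pi.single_apply]
      · simp [Matrix.vecMulVec_apply, Pi.single_apply]
      · simp [Matrix.vecMulVec_apply, Pi.single_apply]
      · simp [Matrix.vecMulVec_apply, Pi.single_apply, Matrix.one_apply]
    have hle : ((xt : Matrix (MI n) (MI n) F) - 1).rank ≤ 2 := by
      rw [hdec]
      refine le_trans (Cfsg.Agent.Lib.Helper76.OFX.rank_add_le' _ _) ?_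
      have h1 := Matrix.rank_vecMulVec_le (R := F) (Pi.single (Sum.inl (Sum.inl i0) : MI n) (1 : F))
        (Pi.single (Sum.inl (Sum.inl i1) : MI n) (1 : F))
      have h2' := Matrix.rank_vecMulVec_le (R := F)
        (Pi.single (Sum.inl (Sum.inr i1) : MI n) (-1 : F))
        (Pi.single (Sum.inl (Sum.inr i0) : MI n) (1 : F))
      omega
    have hpos : ((xt : Matrix (MI n) (MI n) F) - 1).rank ≠ 0 := by
      intro h0
      have h1 : LinearMap.range ((xt : Matrix (MI n) (MI n) F) - 1).mulVecLin = ⊥ :=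
        Submodule.finrank_eq_zero.mp h0
      have h3 : ((xt : Matrix (MI n) (MI n) F) - 1) *ᵥ (Pi.single (Sum.inl (Sum.inl i1)) 1) = 0 := by
        have : ((xt : Matrix (MI n) (MI n) F) - 1).mulVecLin (Pi.single (Sum.inl (Sum.inl i1)) 1)
            ∈ LinearMap.range ((xt : Matrix (MI n) (MI n) F) - 1).mulVecLin :=
          LinearMap.mem_range_self _ _
        rw [h1, Submodule.mem_bot] at this
        exact this
      have h4 := congrFun h3 (Sum.inl (Sum.inl i0))
      rw [Matrix.mulVec_single, Pi.zero_apply] at h4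
      simp only [MulOpposite.op_one, one_smul, Matrix.col_apply, Matrix.sub_apply] at h4
      rw [hentry, Matrix.one_apply_ne hne, sub_zero] at h4
      exact one_ne_zero h4
    intro h4
    obtain ⟨k, hk⟩ := h4
    omega

end Cfsg.Agent.Lib.Helper76.OFM
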