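import Mathlib
import Cfsg.Agent.Lib.Helper74.OFM.Defs
import Cfsg.Agent.Lib.Helper76.OFX.PkgMod4

/-!
# OFM package [MOD4] (generic in the quadratic form)
-/

set_option autoImplicit false

namespace Cfsg.Agent.Lib.Helper76.OFM

open Matrix Cfsg.Agent.Lib.Helper74.OFM

universe u

/-- `4 ∣ rank (X - 1)` for an isometry `X` of odd order of a nondegenerate quadratic form
commuting with a self-adjoint `A`, `A² = a` a non-square. -/
theorem four_dvd_rank_of_nd {F : Type u} [Field F] (h2 : (2 : F) ≠ 0) {ι : Type} [Fintype ι]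
    [DecidableEq ι] (Q : (ι → F) → F) (hQ : Cfsg.Geo.IsNondegenerateQuadraticForm Q) (a : F)
    (ha : ¬ IsSquare a) (A X : Matrix ι ι F) (hA : A * A = a • (1 : Matrix ι ι F))
    (hAf : ∀ u v, QuadraticMap.polar Q (A *ᵥ u) v = QuadraticMap.polar Q u (A *ᵥ v))
    (hX : ∀ v, Q (X *ᵥ v) = Q v) (n : ℕ) (hn : Odd n) (hXn : X ^ n = 1) (hXA : X * A = A * X) :
    4 ∣ (X - 1).rank := by
  refine Cfsg.Agent.Lib.Helper76.OFX.four_dvd_rank_sub_one h2 (QuadraticMap.polar Q)
    hQ.polar_bilinear.add_right (fun c u v => hQ.polar_bilinear.smul_right c u v)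
    (fun u v => QuadraticMap.polar_comm Q u v) ?_ a ha A X hA hAf ?_ n hn hXn hXA
  · intro u hu
    by_contra hne
    obtain ⟨x, hx⟩ := (hQ.nondegenerate u hne).2
    exact hx (hu x)
  · intro u v
    unfold QuadraticMap.polar
    rw [← Matrix.mulVec_add, hX, hX, hX]

theorem pkgMod4 : PkgMod4.{u} := by
  intro F _ _ hodd ι _ _ Q hQ a α ha hα x g hx hg r hr hxr hPM
  have h2 : (2 : F) ≠ 0 := Cfsg.Agent.Lib.Helper44.two_ne_zero_of_odd_card hodd
  set y : GL ι F := g⁻¹ * x * g with hy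
  have hyiso : y ∈ Cfsg.isometryGroup F Q := mul_mem (mul_mem (inv_mem hg) hx) hg
  have hxr' : x ^ r = 1 := by
    apply Units.ext
    rw [Units.val_pow_eq_pow_val]
    exact hxr
  have hyr' : y ^ r = 1 := by
    have h1 : y = g⁻¹ * x * g⁻¹⁻¹ := by rw [inv_inv]
    rw [h1, conj_pow, hxr', mul_one, mul_inv_cancel]
  have hyr : (y : Matrix ι ι F) ^ r = 1 := by
    rw [← Units.val_pow_eq_pow_val, hyr']
    rfl
  have hcomm : (y : Matrix ι ι F) * α = α * (y : Matrix ι ι F) := by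
    rcases hPM with h | h
    · exact h
    · have h1 := Cfsg.Agent.Lib.Helper76.OFX.anti_pow (y : Matrix ι ι F) α h r
      rw [hyr, Matrix.one_mul, Matrix.mul_one, Odd.neg_one_pow hr, neg_smul, one_smul] at h1
      rw [h]
      nth_rw 1 [h1]
      rw [neg_mul, neg_neg]
  have h4 := four_dvd_rank_of_nd h2 Q hQ a ha α (y : Matrix ι ι F) hα.1 hα.2
    (fun v => hyiso v v) r hr hyr hcomm
  have hrank : ((y : Matrix ι ι F) - 1).rank = ((x : Matrix ι ι F) - 1).rank := by
    have h1 : (y : Matrix ι ι F) - 1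
        = ((g⁻¹ : GL ι F) : Matrix ι ι F) * ((x : Matrix ι ι F) - 1) * (g : Matrix ι ι F) := by
      rw [hy, Units.val_mul, Units.val_mul, Matrix.mul_sub, Matrix.sub_mul, Matrix.mul_one,
        ← Units.val_mul g⁻¹ g, inv_mul_cancel]
      rfl
    have hg1 : IsUnit (g : Matrix ι ι F).det := (Matrix.isUnit_iff_isUnit_det _).mp g.isUnit
    have hg2 : IsUnit ((g⁻¹ : GL ι F) : Matrix ι ι F).det :=
      (Matrix.isUnit_iff_isUnit_det _).mp (g⁻¹).isUnit
    rw [h1, Matrix.rank_mul_eq_left_of_isUnit_det _ _ hg1,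
      Matrix.rank_mul_eq_right_of_isUnit_det _ _ hg2]
  rw [← hrank]
  exact h4

end Cfsg.Agent.Lib.Helper76.OFM
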