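import Mathlib
import Cfsg.Agent.Lib.Helper74.OFM.Defs
import Cfsg.Agent.Lib.Helper85.OFX.TwistP
import Cfsg.Agent.Lib.Helper44.SiegelOmega

/-!
# OFM package [TWISTP] (generic in the quadratic form)

A wrapper of helper85's form-generic `twisted_generic`.
-/

set_option autoImplicit false

namespace Cfsg.Agent.Lib.Helper76.OFM

open Matrix Cfsg.Agent.Lib.Helper74.OFM

universe u

theorem pkgTwistP : PkgTwistP.{u} := by
  intro F _ _ hodd ι _ _ Q hQg hev h2c a ha x hxΩ hxx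
  classical
  obtain ⟨Q', hcoe, hQ⟩ := Cfsg.Agent.Lib.Helper44.exists_quadraticForm_of_geo hQg
  subst hcoe
  unfold Cfsg.Geo.omegaGL at hxΩ
  obtain ⟨g, hg, rfl⟩ := hxΩ
  have hdet : ((g : GL ι F) : Matrix ι ι F).det = 1 :=
    (Cfsg.Agent.Lib.Helper14.mem_specialIsometryGroup_iff _ g).mp
      (Cfsg.Agent.Lib.Helper14.commutator_le_specialIsometryGroup _ hg)
  have hiso : ∀ v, Q' (((g : GL ι F) : Matrix ι ι F) *ᵥ v) = Q' v :=
    fun v => Cfsg.Agent.Lib.Helper14.isom_preserves g v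
  obtain ⟨α', u, u', h1, h3, hQu, hQu', hns, h4, h5, h6⟩ :=
    Cfsg.Agent.Lib.Helper85.OFX.twisted_generic hodd Q' hQ (by omega) hev a ha _ hiso hxx hdet
  set X : Matrix ι ι F := ((g : GL ι F) : Matrix ι ι F) with hX
  have comm3 : ∀ M N : Matrix ι ι F, X * M = M * X → X * N = N * X →
      X * (M * N) = (M * N) * X := by
    intro M N hM hN
    rw [← Matrix.mul_assoc, hM, Matrix.mul_assoc, hN, Matrix.mul_assoc]
  refine ⟨α', u, u', ⟨h1, h3⟩, hQu, hQu', hns, Or.inl h4, Or.inl ?_, Or.inl ?_, Or.inl ?_⟩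
  · exact comm3 _ _ (comm3 _ _ h5 h4) h5
  · have e : Rf (⇑Q') u' * Rf (⇑Q') u * α' * (Rf (⇑Q') u * Rf (⇑Q') u') =
        ((Rf (⇑Q') u' * Rf (⇑Q') u) * α') * (Rf (⇑Q') u * Rf (⇑Q') u') := rfl
    rw [e]
    exact comm3 _ _ (comm3 _ _ (comm3 _ _ h6 h5) h4) (comm3 _ _ h5 h6)
  · exact comm3 _ _ (comm3 _ _ h6 h4) h6

end Cfsg.Agent.Lib.Helper76.OFM
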